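import Cfsg.Agent.H16.Rec.McLTab
import Cfsg.Agent.CoThreeStd.MTwelveCent

/-!
# `3^2:8` in `M₁₁` and `M₁₂` (helper844)
-/

set_option autoImplicit false

namespace Cfsg.Agent.H844.Rec

open Subgroup
open Cfsg.Agent.H58.Rec (HasOrd HasFrob)
open Cfsg.Agent.CoThreeStd.MTwelve
open Cfsg.Agent.SporadicStructure.M11InvPerms (enc dec)

universe u

/-- word of `a` -/
def la : List ℕ := [3, 4, 2, 5, 1, 0]
/-- word of `b` -/
def lb : List ℕ := [4, 1, 5, 3, 1, 5, 3, 1, 2, 0]
/-- word of `c` -/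
def lc : List ℕ := [3, 5, 0, 5, 1]

theorem fix_of {l : List ℕ} (h : act l 0 = 0) : (wd l).1 (some 0) = some 0 := by
  have h1 := (act_spec l 0 (by norm_num)).1
  rw [h] at h1
  have h2 : dec 0 = some 0 := rfl
  rw [h2] at h1
  rw [← dec_enc ((wd l).1 (some 0)), h1]
  rfl

theorem fix_a : (wd la).1 (some 0) = some 0 := fix_of (by decide +kernel)
theorem fix_b : (wd lb).1 (some 0) = some 0 := fix_of (by decide +kernel)
theorem fix_c : (wd lc).1 (some 0) = some 0 := fix_of (by decide +kernel)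

/-- elements of `M₁₂` fixing the point, in `M₁₁` -/
def upM11 (x : H) (hx : x.1 (some 0) = some 0) : Cfsg.Spor.M11 := ⟨x.1, Subgroup.mem_inf.2 ⟨x.2, hx⟩⟩

theorem frob38_M11 : HasFrob Cfsg.Spor.M11 3 8 := by
  refine Cfsg.Agent.H16.Rec.hasFrob_three_eight (a := upM11 (wd la) fix_a) (b := upM11 (wd lb) fix_b) (c := upM11 (wd lc) fix_c)
    ?_ ?_ ?_ ?_ ?_ ?_
  · apply Subtype.ext
    have h : wd (la ++ (la ++ la)) = wd [] := wd_eq (by decide +kernel)
    rw [wd_append, wd_append, wd_nil] at h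
    have h1 := congrArg Subtype.val h
    show (wd la).1 ^ 3 = 1
    rw [pow_succ, pow_two, mul_assoc]
    exact h1
  · intro h
    have h1 := congrArg Subtype.val h
    have h2 : (wd la).1 = 1 := h1
    have h3 : act la 1 ≠ 1 := by decide +kernel
    apply h3
    have h4 := (act_spec la 1 (by norm_num)).1
    rw [h2, Equiv.Perm.one_apply] at h4
    rw [← h4]
    exact enc_dec 1 (by norm_num)
  · apply Subtype.ext
    have h : wd (la ++ lb) = wd (lb ++ la) := wd_eq (by decide +kernel)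
    rw [wd_append, wd_append] at h
    have h1 := congrArg Subtype.val h
    exact h1
  · apply Subtype.ext
    have h : wd (lc ++ la) = wd (lb ++ lc) := wd_eq (by decide +kernel)
    rw [wd_append, wd_append] at h
    have h1 := congrArg Subtype.val h
    exact h1
  · apply Subtype.ext
    have h : wd (lc ++ lb) = wd (la ++ lb ++ lc) := wd_eq (by decide +kernel)
    rw [wd_append, wd_append, wd_append] at h
    have h1 := congrArg Subtype.val h
    exact h1
  · apply Subtype.ext
    have h : wd (lc ++ (lc ++ (lc ++ (lc ++ (lc ++ (lc ++ (lc ++ lc))))))) = wd [] := wd_eq (by decide +kernel)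
    simp only [wd_append, wd_nil] at h
    have h1 := congrArg Subtype.val h
    show (wd lc).1 ^ 8 = 1
    have h2 : (wd lc).1 ^ 8 = (wd lc).1 * ((wd lc).1 * ((wd lc).1 * ((wd lc).1 * ((wd lc).1 * ((wd lc).1 *
      ((wd lc).1 * (wd lc).1)))))) := by simp only [pow_succ, pow_zero, one_mul, mul_assoc]
    rw [h2]
    exact h1

/-- `M₁₁` in `M₁₂` -/
theorem frob38_M12 : HasFrob Cfsg.Spor.M12 3 8 :=
  frob38_M11.of_injective (Subgroup.inclusion (inf_le_left : Cfsg.Spor.M11 ≤ Cfsg.Spor.M12))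
    (Subgroup.inclusion_injective _)

theorem frob38_of_M11 {S : Type u} [Group S] (h : Cfsg.Spor.IsoM11 S) : HasFrob S 3 8 := by
  obtain ⟨e⟩ := h
  exact frob38_M11.congr e.symm

theorem frob38_of_M12 {S : Type u} [Group S] (h : Cfsg.Spor.IsoM12 S) : HasFrob S 3 8 := by
  obtain ⟨e⟩ := h
  exact frob38_M12.congr e.symm

end Cfsg.Agent.H844.Rec
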